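import Cfsg.Agent.H118.Four.Psi
import Cfsg.Agent.H601.OddDeg.BN
import Cfsg.Agent.H601.OddDeg.Idx
import Cfsg.Agent.H40.GGBldg
import Cfsg.Agent.H307.FourOdd.Defs
import Cfsg.Agent.Mrg.Omega.ML.Ex.Typ.List

/-!
# Five odd degree characters for groups with a split (B,N)-pair of odd characteristic (TEAM FOUR, S4947)

* `st_of_split` : the Steinberg character;
* `five_of_split` : a finite group with a split (B,N)-pair of odd characteristic of type `M` with `4 ∣ |W|` has at
  least five irreducible characters of odd degree;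
* **`five_of_hasRGDT`** : the version for root group data.
-/

set_option autoImplicit false
set_option linter.unusedSectionVars false

namespace Cfsg.Agent.H118.Four

open Cfsg Subgroup Cfsg.Agent.Characters.Core Cfsg.Agent.H601.OddDeg Cfsg.Agent.H307.FourOdd
open Cfsg.Agent.Tits.Core Cfsg.Agent.Tits.Core.Bldg Cfsg.Agent.FixBN Cfsg.Agent.H163.Steinberg
open Cfsg.Agent.Tits.OfBN Cfsg.Agent.FixBN.OfBN Cfsg.Agent.FixBN.TwOfBN Cfsg.Agent.H612.BNCosets
open Cfsg.Agent.Tits.OppRes Cfsg.Agent.Omega.ML.Ex.Typ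
open scoped ComplexConjugate Classical

section

variable {K : Type*} [Group K] [Fintype K] {P : Cfsg.BNPair K} {p : ℕ} {U : Subgroup K}

/-- **The Steinberg character.** -/
theorem st_of_split (hs : Split P p U) (hp : p.Prime) (hp2 : p ≠ 2) {I : Type*} {M : CoxeterMatrix I}
    {e : I ≃ P.S} (hM : BNType P M e) :
    ∃ χ : K → ℂ, IsIrrCharacter K χ ∧ (∀ x, (χ x).im = 0) ∧ ¬ 2 ∣ charDegree χ ∧ χ 1 = Nat.card U ∧
      (∀ u ∈ U, u ≠ 1 → χ u = 0) ∧ (∀ i, mult (PJ P e {i}) χ = 0) ∧ mult P.B χ ≠ 0 := by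
  have : Fact p.Prime := ⟨hp⟩
  obtain ⟨hN, cs, hcs⟩ := hM
  have hI : Finite I := finite_I e
  have : Fintype (K ⧸ P.B) := Fintype.ofFinite _
  set Δ := bldg P e cs hcs with hΔ
  set S := sys e cs hcs hs with hS
  have ht : ∀ x y : K ⧸ P.B, ∃ g : K, g • x = y := fun x y => MulAction.exists_smul_eq K x y
  have hopp : ∀ c : K ⧸ P.B, ∃ d, Δ.Opp c d := fun c => Tits.Opp.exists_opp Δ c
  set c0 : K ⧸ P.B := QuotientGroup.mk 1 with hc0
  have hirr := isIrreducible S ht c0 (hopp c0)
  have hU : S.U c0 = U := by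
    ext u
    change u ∈ UU P U (QuotientGroup.mk 1) ↔ _
    rw [mem_UU hs]
    simp
  have hχirr : IsIrrCharacter K (rep (G := K) S.iso).character := isIrrCharacter_of_rep _ hirr
  have h1 : (rep (G := K) S.iso).character 1 = Nat.card U := by
    rw [character_apply S c0 (hopp c0) 1 (one_mem _), if_pos rfl, hU]
  refine ⟨(rep (G := K) S.iso).character, hχirr, fun x => SteinbergInv.character_im S x, ?_, h1, ?_, ?_, ?_⟩
  · -- odd degree
    rw [charDegree, h1]
    have h2 := odd_card hs hp hp2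
    rw [Complex.natCast_re, Nat.floor_natCast, ← even_iff_two_dvd, Nat.not_even_iff_odd]
    exact h2
  · intro u hu hu1
    rw [character_apply S c0 (hopp c0) u (by rw [hU]; exact hu), if_neg hu1]
  · -- no fixed vectors of the minimal parabolic subgroups
    intro i
    have h4 := mult_eq_finrank (PJ P e {i}) (rep (G := K) S.iso)
    rw [h4, Nat.cast_eq_zero, Submodule.finrank_eq_zero, eq_bot_iff]
    intro f hf
    rw [Submodule.mem_bot]
    have hinv : ∀ k ∈ PJ P e {i}, rep (G := K) S.iso k f = f := fun k hk => hf ⟨k, hk⟩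
    apply SteinbergInv.eq_zero_of_inv S ht (c := c0)
    · intro u hu
      rw [hU] at hu
      exact hinv u (B_le_PJ P e {i} (hs.le hu))
    · have h5 : ∀ y ∈ Δ.Pan i c0, (f : K ⧸ P.B → ℂ) y = (f : K ⧸ P.B → ℂ) c0 := by
        intro y hy
        induction y using QuotientGroup.induction_on with
        | _ a =>
        have ha : a ∈ PJ P e {i} := by
          rw [mem_PJ P e cs hcs]
          rcases Δ.mem_Pan.1 hy with h | h
          · rw [hc0, OfBN.mk_eq, mul_one] at h
            have h6 : wt P a = 1 := by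
              have h7 : wt P (1 * a) = wt P 1 := wt_mul_right P 1 (by simpa using inv_mem h)
              rw [one_mul] at h7
              rw [h7]
              exact wt_of_mem P (n := 1) (LieExceptional.BNPairCore.self_mem_C _)
            rw [h6]
            exact one_mem _
          · rw [hc0, hΔ, bldg_δ_mk, inv_one, one_mul] at h
            rw [h]
            exact Subgroup.subset_closure ⟨i, rfl, rfl⟩
        have h6 := congrArg (fun z : St Δ => (z : K ⧸ P.B → ℂ) (QuotientGroup.mk a)) (hinv a ha)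
        simp only [rep_apply] at h6
        rw [← h6]
        rw [OfBN.smul_mk, inv_mul_cancel]
      have h6 := f.2 i c0
      unfold psum at h6
      have h7 : ∑ y, (if y ∈ Δ.Pan i c0 then (f : K ⧸ P.B → ℂ) y else 0) =
          (Finset.univ.filter fun y => y ∈ Δ.Pan i c0).card * (f : K ⧸ P.B → ℂ) c0 := by
        rw [← Finset.sum_filter, Finset.sum_congr rfl fun y hy => h5 y (Finset.mem_filter.1 hy).2,
          Finset.sum_const, nsmul_eq_mul]
      rw [h7] at h6
      refine (mul_eq_zero.1 h6).resolve_left (Nat.cast_ne_zero.2 ?_)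
      apply Finset.card_ne_zero_of_mem (a := c0)
      rw [Finset.mem_filter]
      exact ⟨Finset.mem_univ _, Δ.mem_Pan.2 (Or.inl rfl)⟩
  · -- the value at `c0` is a functional invariant under `B`
    intro h0
    rw [mult_eq_finrank (P.B) (rep (G := K) S.iso), Nat.cast_eq_zero, Submodule.finrank_eq_zero, eq_bot_iff] at h0
    have hzero : ∀ f : St Δ, (f : K ⧸ P.B → ℂ) c0 = 0 := by
      intro f
      have h2 : ∑ b : P.B, rep (G := K) S.iso (b : K) f = 0 := by
        have h3 : ∑ b : P.B, rep (G := K) S.iso (b : K) f ∈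
            Representation.invariants ((rep (G := K) S.iso).comp P.B.subtype) := by
          intro b
          change rep (G := K) S.iso (b : K) _ = _
          rw [map_sum]
          refine Fintype.sum_equiv (Equiv.mulLeft b) _ _ fun x => ?_
          rw [Equiv.coe_mulLeft, Subgroup.coe_mul, map_mul]
          rfl
        exact (Submodule.mem_bot ℂ).1 (h0 h3)
      have h3 := congrArg (fun z : St Δ => (z : K ⧸ P.B → ℂ) c0) h2
      simp only [Submodule.coe_sum, Finset.sum_apply, rep_apply, Submodule.coe_zero, Pi.zero_apply] at h3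
      have h4 : ∀ b : P.B, ((b : K)⁻¹ • c0 : K ⧸ P.B) = c0 := by
        intro b
        rw [hc0, OfBN.smul_mk_eq]
        simp
      rw [Finset.sum_congr rfl fun b _ => by rw [h4 b], Finset.sum_const, nsmul_eq_mul] at h3
      refine (mul_eq_zero.1 h3).resolve_left (Nat.cast_ne_zero.2 ?_)
      rw [Finset.card_univ]
      exact Fintype.card_ne_zero
    have hall : ∀ f : St Δ, f = 0 := by
      intro f
      apply Subtype.ext
      funext y
      obtain ⟨g, hg⟩ := ht y c0
      have h2 := hzero (rep (G := K) S.iso g f)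
      rw [rep_apply, ← hg, inv_smul_smul] at h2
      exact h2
    have h2 : Subsingleton (St Δ) := ⟨fun a b => by rw [hall a, hall b]⟩
    have h3 := Representation.char_one (rep (G := K) S.iso)
    rw [h1, Module.finrank_zero_of_subsingleton, Nat.cast_zero, Nat.cast_eq_zero] at h3
    exact Nat.card_pos.ne' h3

/-- **Data for the count**: a linear character of `U`. -/
theorem exists_psi (hs : Split P p U) (hp : p.Prime) {I : Type*} {M : CoxeterMatrix I}
    {e : I ≃ P.S} (hM : BNType P M e) :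
    ∃ (ψ : U →* ℂˣ) (D : Set K), (∀ x ∉ D, ∃ u : U, x⁻¹ * u * x ∈ P.B ∧ ψ u ≠ 1) ∧
      (∀ x ∈ D, ∀ u ∈ U, x⁻¹ * u * x ∈ P.B → u = 1) ∧ Nat.card D ≤ Nat.card U * Nat.card P.B := by
  have : Fact p.Prime := ⟨hp⟩
  obtain ⟨hN, cs, hcs⟩ := hM
  have hI : Finite I := finite_I e
  set Δ := bldg P e cs hcs with hΔ
  set S := sys e cs hcs hs with hS
  have hopp : ∀ c : K ⧸ P.B, ∃ d, Δ.Opp c d := fun c => Tits.Opp.exists_opp Δ c
  set c0 : K ⧸ P.B := QuotientGroup.mk 1 with hc0
  have hU : S.U c0 = U := by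
    ext u
    change u ∈ UU P U (QuotientGroup.mk 1) ↔ _
    rw [mem_UU hs]
    simp
  have hth : Δ.Thick := thick P e cs hcs
  obtain ⟨ψ, hψ⟩ := H40.GGB.exists_char S hth c0
  have hBx : ∀ x u : K, x⁻¹ * u * x ∈ P.B ↔ u • (x • c0) = x • c0 := by
    intro x u
    rw [hc0, OfBN.smul_mk, mul_one, OfBN.smul_mk_eq]
  refine ⟨ψ.comp (MulEquiv.subgroupCongr hU.symm).toMonoidHom, {x : K | Δ.Opp c0 (x • c0)}, ?_, ?_, ?_⟩
  · intro x hx
    obtain ⟨i, z, hz, hiz⟩ := H40.GGB.exists_far S hth ∅ c0 (x • c0) (by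
      intro a ha hca
      rw [Δ.Res_empty, Set.mem_singleton_iff] at ha
      rw [ha] at hca
      exact hx hca)
    obtain ⟨u, huz, hu⟩ := hψ i z hz
    refine ⟨⟨u, by rw [← hU]; exact u.2⟩, ?_, hu⟩
    rw [hBx]
    refine S.fix _ _ (hiz u u.2 huz (x • c0) ?_)
    rw [Δ.Res_empty]
    rfl
  · intro x hx u hu hux
    rw [hBx] at hux
    rw [← hU] at hu
    exact S.free c0 (x • c0) hx u hu hux
  · obtain ⟨d, hd⟩ := hopp c0
    obtain ⟨h₀, hh₀⟩ := MulAction.exists_smul_eq K c0 d
    have hex : ∀ x : {x : K | Δ.Opp c0 (x • c0)}, ∃ u : U, (u : K) • d = (x : K) • c0 := by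
      intro x
      obtain ⟨u, hu, hud⟩ := S.trans c0 d ((x : K) • c0) hd x.2
      exact ⟨⟨u, by rw [← hU]; exact hu⟩, hud⟩
    choose f hf using hex
    have hmem : ∀ x : {x : K | Δ.Opp c0 (x • c0)}, ((f x : K) * h₀)⁻¹ * (x : K) ∈ P.B := by
      intro x
      have h1 := hf x
      rw [← hh₀, ← mul_smul] at h1
      have h2 : (QuotientGroup.mk ((f x : K) * h₀ * 1) : K ⧸ P.B) = QuotientGroup.mk ((x : K) * 1) := h1
      rw [mul_one, mul_one, OfBN.mk_eq] at h2
      exact h2
    rw [← Nat.card_prod]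
    refine Nat.card_le_card_of_injective
      (fun x : {x : K | Δ.Opp c0 (x • c0)} => (f x, (⟨_, hmem x⟩ : P.B))) ?_
    intro x y hxy
    have e1 : f x = f y := congrArg Prod.fst hxy
    have e2 : ((f x : K) * h₀)⁻¹ * (x : K) = ((f y : K) * h₀)⁻¹ * (y : K) :=
      congrArg Subtype.val (congrArg Prod.snd hxy)
    rw [e1] at e2
    exact Subtype.ext (mul_left_cancel e2)

/-- `U` and `B` have the same orbits on the chambers. -/
theorem orb_of_split (hs : Split P p U) (x b : K) (hb : b ∈ P.B) : ∃ u ∈ U, (u * x)⁻¹ * (b * x) ∈ P.B := by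
  have h1 : dist P (QuotientGroup.mk 1 : K ⧸ P.B) (QuotientGroup.mk x) =
      dist P (QuotientGroup.mk 1 : K ⧸ P.B) (QuotientGroup.mk (b * x)) := by
    rw [dist_mk, dist_mk, inv_one, one_mul, one_mul]
    exact (wt_mul_left P x hb).symm
  obtain ⟨u, hu, hux⟩ := FixBN.OfBN.trans hs h1
  rw [mem_UU hs] at hu
  refine ⟨u, by simpa using hu, ?_⟩
  rw [OfBN.smul_mk, OfBN.mk_eq] at hux
  exact hux

end

section

variable {K : Type*} [Group K] [Finite K] {P : Cfsg.BNPair K} {p : ℕ} {U : Subgroup K}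

/-- **Five odd degree characters.** -/
theorem five_of_split (hs : Split P p U) (hp : p.Prime) (hp2 : p ≠ 2) {I : Type*} {M : CoxeterMatrix I}
    {e : I ≃ P.S} (hM : BNType P M e) (h4 : 4 ∣ Nat.card M.Group) : 5 ≤ K0 K := by
  have := Fintype.ofFinite K
  have := finite_irr (G := K)
  have := Fintype.ofFinite (IrrCharacter K)
  have hI : Finite I := finite_I e
  obtain ⟨ψ, D, hψ1, hψ2, hψ3⟩ := exists_psi hs hp hM
  obtain ⟨s, hs1, hs2, hs3, hs4, hs5, hs6, hs7⟩ := st_of_split hs hp hp2 hM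
  obtain ⟨hN, cs, hcs⟩ := hM
  have hodd : Odd (Nat.card U) := odd_card hs hp hp2
  -- a node
  have hWM : Nat.card (WP P) = Nat.card M.Group := Nat.card_congr cs.mulEquiv.toEquiv
  obtain ⟨i⟩ : Nonempty I := by
    by_contra hne
    rw [not_nonempty_iff] at hne
    have h1 : Subsingleton (WP P) := by
      refine ⟨fun a b => ?_⟩
      have h2 : ∀ w : WP P, w = 1 := by
        intro w
        obtain ⟨ω, rfl⟩ := cs.wordProd_surjective w
        cases ω with
        | nil => exact cs.wordProd_nil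
        | cons i _ => exact (hne.false i).elim
      rw [h2 a, h2 b]
    have h2 : Nat.card (WP P) = 1 := Nat.card_of_subsingleton 1
    rw [hWM] at h2
    rw [h2] at h4
    exact absurd h4 (by decide)
  have hWJ : 2 ∣ (WJ cs {i}).index := by
    have h1 := (WJ cs {i}).card_mul_index
    rw [Idx.card_WJ_single, hWM] at h1
    have h2 : 2 * 2 ∣ 2 * (WJ cs {i}).index := by
      rw [h1]
      exact h4
    exact Nat.dvd_of_mul_dvd_mul_left two_pos h2
  have hpar : 2 ∣ (PJ P e {i}).index :=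
    Nat.modEq_zero_iff_dvd.1 ((index_parity e hs cs hcs hp hp2 {i}).trans (Nat.modEq_zero_iff_dvd.2 hWJ))
  have hBi : 2 ∣ P.B.index := hpar.trans (Subgroup.index_dvd_of_le (B_le_PJ P e {i}))
  have hUi : 2 ∣ U.index := hBi.trans (Subgroup.index_dvd_of_le hs.le)
  obtain ⟨φ, hφ1, hφ2, hφ3, hφ4, hφ5⟩ := exists_real (PJ P e {i}) hpar
  have hφB : mult P.B φ ≠ 0 := mult_ne_zero_of_le (B_le_PJ P e {i}) (isIrr_isCharacter hφ1) hφ5
  have hφs : φ ≠ s := by
    rintro rfl
    exact hφ5 (hs6 i)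
  have h1s : (1 : K → ℂ) ≠ s := by
    rintro rfl
    have h1 := hs6 i
    rw [mult_one] at h1
    exact one_ne_zero h1
  have hmult1 : mult P.B (1 : K → ℂ) = 1 := mult_one _
  -- the multiplicities
  choose g hg using fun χ : IrrCharacter K => exists_mult_eq P.B (isIrr_isCharacter χ.2)
  choose m hm using fun χ : IrrCharacter K => H40.GG.exists_mult_lin U ψ (isIrr_isCharacter χ.2)
  have hgodd : ∀ χ : IrrCharacter K, (∀ x, ((χ : K → ℂ) x).im = 0) → ¬ 2 ∣ charDegree (χ : K → ℂ) →
      mult P.B (χ : K → ℂ) ≠ 0 → Odd (g χ) := by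
    intro χ h1 h2 h3
    refine mult_odd hodd χ.2 h1 h2 ?_
    rw [mult_eq hs.le (orb_of_split hs) χ.2 h3]
    exact hg χ
  have hm0 : ∀ χ : IrrCharacter K, (χ : K → ℂ) ≠ s → g χ ≠ 0 → m χ = 0 := by
    intro χ h1 h2
    have h3 := lin_zero U P.B ψ D hψ1 hψ2 hψ3 hs1 hs4 hs5 hs7 χ.2 h1 (by
      rw [hg χ]
      exact Nat.cast_ne_zero.2 h2)
    rw [hm χ] at h3
    have h4 : (Nat.card U : ℂ) ≠ 0 := Nat.cast_ne_zero.2 Nat.card_pos.ne'
    exact_mod_cast (mul_eq_zero.1 h3).resolve_left h4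
  have hsumg : ∑ χ : IrrCharacter K, g χ * charDegree (χ : K → ℂ) = P.B.index := by
    have h1 := sum_mult P.B
    have h2 : ∀ χ : IrrCharacter K, mult P.B (χ : K → ℂ) * (χ : K → ℂ) 1 =
        ((g χ * charDegree (χ : K → ℂ) : ℕ) : ℂ) := by
      intro χ
      rw [hg, Cfsg.Agent.Blocks.Basic.irr_one_eq_charDegree χ.2]
      push_cast
      rfl
    rw [Finset.sum_congr rfl fun χ _ => h2 χ] at h1
    exact_mod_cast h1
  have hsumm := sum_lin U ψ m hm
  -- the set of odd degree characters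
  set O : Finset (IrrCharacter K) := Finset.univ.filter fun χ => ¬ 2 ∣ charDegree (χ : K → ℂ) with hO
  have hmemO : ∀ χ : IrrCharacter K, χ ∈ O ↔ ¬ 2 ∣ charDegree (χ : K → ℂ) := by
    intro χ
    rw [hO, Finset.mem_filter]
    exact ⟨fun h => h.2, fun h => ⟨Finset.mem_univ _, h⟩⟩
  have hev : ∀ f : IrrCharacter K → ℕ, 2 ∣ ∑ χ : IrrCharacter K, f χ * charDegree (χ : K → ℂ) →
      2 ∣ ∑ χ ∈ O, f χ := by
    intro f hf
    rw [← ZMod.natCast_eq_zero_iff] at hf ⊢
    push_cast at hf ⊢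
    rw [← hf, hO, Finset.sum_filter]
    refine Finset.sum_congr rfl fun χ _ => ?_
    by_cases h : 2 ∣ charDegree (χ : K → ℂ)
    · rw [if_neg (not_not.2 h), (ZMod.natCast_eq_zero_iff _ _).2 h, mul_zero]
    · have h1 : Odd (charDegree (χ : K → ℂ)) := by
        rwa [← Nat.not_even_iff_odd, even_iff_two_dvd]
      rw [if_pos h, ZMod.natCast_eq_one_iff_odd.2 h1, mul_one]
  have hsub : ∀ (f : IrrCharacter K → ℕ) (T : Finset (IrrCharacter K)), T ⊆ O → 2 ∣ ∑ χ ∈ O, f χ →
      ¬ 2 ∣ ∑ χ ∈ T, f χ → ∃ χ ∈ O, χ ∉ T ∧ ¬ 2 ∣ f χ := by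
    intro f T hT h1 h2
    by_contra hcon
    push Not at hcon
    apply h2
    have h3 := Finset.sum_sdiff (f := f) hT
    have h5 : 2 ∣ ∑ χ ∈ O \ T, f χ := Finset.dvd_sum fun χ hχ => by
      rw [Finset.mem_sdiff] at hχ
      exact hcon χ hχ.1 hχ.2
    rw [← h3] at h1
    exact (Nat.dvd_add_right h5).1 h1
  let o : IrrCharacter K := ⟨1, isIrr_one⟩
  let s' : IrrCharacter K := ⟨s, hs1⟩
  let φ' : IrrCharacter K := ⟨φ, hφ1⟩
  have hos : o ≠ s' := fun h => h1s (congrArg Subtype.val h)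
  have hoφ : o ≠ φ' := fun h => hφ4 (congrArg Subtype.val h).symm
  have hsφ : s' ≠ φ' := fun h => hφs (congrArg Subtype.val h).symm
  have hdo : ¬ 2 ∣ charDegree (o : K → ℂ) := by
    change ¬ 2 ∣ charDegree (1 : K → ℂ)
    rw [charDegree]
    simp
  have hOo : o ∈ O := (hmemO o).2 hdo
  have hOs : s' ∈ O := (hmemO s').2 hs3
  have hOφ : φ' ∈ O := (hmemO φ').2 hφ3
  have hgo : Odd (g o) := hgodd o (fun x => by
    change ((1 : ℂ)).im = 0
    simp) hdo (by
    change mult P.B (1 : K → ℂ) ≠ 0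
    rw [hmult1]
    exact one_ne_zero)
  have hgs : Odd (g s') := hgodd s' hs2 hs3 hs7
  have hgφ : Odd (g φ') := hgodd φ' hφ2 hφ3 hφB
  -- the fourth
  obtain ⟨χ, hχO, hχT, hχg⟩ := hsub g {o, s', φ'} (by
    intro x hx
    simp only [Finset.mem_insert, Finset.mem_singleton] at hx
    rcases hx with rfl | rfl | rfl <;> assumption) (hev g (by rw [hsumg]; exact hBi)) (by
    rw [Finset.sum_insert (by simp [hos, hoφ]), Finset.sum_insert (by simp [hsφ]), Finset.sum_singleton,
      ← even_iff_two_dvd, Nat.not_even_iff_odd]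
    exact hgo.add_even (hgs.add_odd hgφ))
  simp only [Finset.mem_insert, Finset.mem_singleton, not_or] at hχT
  obtain ⟨hχo, hχs, hχφ⟩ := hχT
  -- the fifth
  have hms : m s' = 1 := by
    have h1 := hm s'
    rw [show ∑ u : U, (((ψ u)⁻¹ : ℂˣ) : ℂ) * (s' : K → ℂ) u = (Nat.card U : ℂ) from lin_one U ψ hs4 hs5] at h1
    have h4 : (Nat.card U : ℂ) ≠ 0 := Nat.cast_ne_zero.2 Nat.card_pos.ne'
    have h2 := mul_left_cancel₀ h4 ((mul_one _).trans h1)
    exact_mod_cast h2.symm
  have hmo : m o = 0 := hm0 o h1s (by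
    intro h
    rw [h] at hgo
    exact absurd hgo (by decide))
  have hmφ : m φ' = 0 := hm0 φ' hφs (by
    intro h
    rw [h] at hgφ
    exact absurd hgφ (by decide))
  have hmχ : m χ = 0 := hm0 χ (fun h => hχs (Subtype.ext h)) (by
    intro h
    rw [h] at hχg
    exact absurd hχg (by decide))
  obtain ⟨η, hηO, hηT, -⟩ := hsub m {χ, o, s', φ'} (by
    intro x hx
    simp only [Finset.mem_insert, Finset.mem_singleton] at hx
    rcases hx with rfl | rfl | rfl | rfl <;> assumption) (hev m (by rw [hsumm]; exact hUi)) (by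
    rw [Finset.sum_insert (by simp [hχo, hχs, hχφ]), Finset.sum_insert (by simp [hos, hoφ]),
      Finset.sum_insert (by simp [hsφ]), Finset.sum_singleton, hmχ, hmo, hms, hmφ]
    decide)
  -- the count
  have hcard : Nat.card {χ : IrrCharacter K // ¬ 2 ∣ charDegree (χ : K → ℂ)} = O.card := by
    rw [Nat.card_eq_fintype_card, Fintype.card_subtype]
  rw [K0, hcard]
  have h5 : ({η, χ, o, s', φ'} : Finset (IrrCharacter K)).card = 5 := by
    simp only [Finset.mem_insert, Finset.mem_singleton, not_or] at hηT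
    rw [Finset.card_insert_of_notMem (by simp [hηT.1, hηT.2.1, hηT.2.2.1, hηT.2.2.2]),
      Finset.card_insert_of_notMem (by simp [hχo, hχs, hχφ]), Finset.card_insert_of_notMem (by simp [hos, hoφ]),
      Finset.card_insert_of_notMem (by simp [hsφ]), Finset.card_singleton]
  rw [← h5]
  refine Finset.card_le_card ?_
  intro x hx
  simp only [Finset.mem_insert, Finset.mem_singleton] at hx
  rcases hx with rfl | rfl | rfl | rfl | rfl <;> assumption

end

universe u

/-- **Theorem A**: five odd degree characters for the simple groups with a root group datum of odd characteristic with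
Weyl group of order divisible by `4`. -/
theorem five_of_hasRGDT {S : Type u} [Group S] [Finite S] [IsSimpleGroup S] {p : ℕ} (hp : p.Prime) (hp2 : p ≠ 2)
    {l : ℕ} {M : CoxeterMatrix (Fin l)} (h : HasRGDT p M S) (h4 : 4 ∣ Nat.card M.Group) : Row5 S := by
  have hl : 0 < l := by
    rcases Nat.eq_zero_or_pos l with rfl | hl
    · exfalso
      have h1 : Subsingleton M.Group := by
        have h2 : ∀ w : M.Group, w = 1 := by
          intro w
          obtain ⟨ω, rfl⟩ := M.toCoxeterSystem.wordProd_surjective w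
          cases ω with
          | nil => exact M.toCoxeterSystem.wordProd_nil
          | cons i _ => exact i.elim0
        exact ⟨fun a b => by rw [h2 a, h2 b]⟩
      have h2 : Nat.card M.Group = 1 := Nat.card_of_subsingleton 1
      rw [h2] at h4
      exact absurd h4 (by decide)
    · exact hl
  obtain ⟨P, U, e, hs, hM⟩ := h.hasSplitT hp hl
  exact five_of_split hs hp hp2 hM h4

end Cfsg.Agent.H118.Four
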