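import Cfsg.Agent.H118.Four.Count

/-!
# The nondegenerate character of `U` and the constituents of the permutation character (TEAM FOUR, S4947)

`U ≤ G`, `B ≤ G`, `ψ` a linear character of `U` which is nontrivial on `U ∩ x B x⁻¹` for `x ∉ D`, with
`U ∩ x B x⁻¹ = 1` for `x ∈ D`, `|D| ≤ |U| |B|`; `s` an irreducible character of degree `|U|`, vanishing on `U - 1`,
a constituent of the permutation character of degree `|G : B|`.

* `lin_zero` : `ψ` is not contained in `χ_U` for a constituent `χ ≠ s` of the permutation character;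
* `sum_lin` : `∑ χ, [χ_U, ψ] χ(1) = |G : U|`.
-/

set_option autoImplicit false
set_option linter.unusedSectionVars false

namespace Cfsg.Agent.H118.Four

open Cfsg Subgroup Cfsg.Agent.Characters.Core Cfsg.Agent.H601.OddDeg Cfsg.Agent.Characters.DegreeBounds
open scoped ComplexConjugate Classical

section

variable {G : Type*} [Group G] [Fintype G]

/-- the multiplicities of a linear character -/
theorem sum_lin [Fintype (IrrCharacter G)] (U : Subgroup G) (ψ : U →* ℂˣ) (m : IrrCharacter G → ℕ)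
    (hm : ∀ χ : IrrCharacter G, ∑ u : U, (((ψ u)⁻¹ : ℂˣ) : ℂ) * (χ : G → ℂ) u = (Nat.card U : ℂ) * m χ) :
    ∑ χ, m χ * charDegree (χ : G → ℂ) = U.index := by
  let a : G → ℂ := extendByZero U (fun u => (((ψ u)⁻¹ : ℂˣ) : ℂ))
  have ha : ∀ g : G → ℂ, ∑ u : G, a u * g u = ∑ u : U, (((ψ u)⁻¹ : ℂˣ) : ℂ) * g u := fun g =>
    CharactersDeep.IndFun.sum_extendByZero U _ g
  have h := H40.GG.sum_pair a (Pi.single (1 : G) (1 : ℂ))
  have hL : ∀ χ : IrrCharacter G, (∑ u : G, a u * (χ : G → ℂ) u) *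
      (∑ v : G, (Pi.single (1 : G) (1 : ℂ) : G → ℂ) v * conj ((χ : G → ℂ) v)) =
      (Nat.card U : ℂ) * ((m χ * charDegree (χ : G → ℂ) : ℕ) : ℂ) := by
    intro χ
    rw [ha, hm χ, Finset.sum_eq_single (1 : G), Pi.single_eq_same, one_mul,
      Cfsg.Agent.Blocks.Basic.irr_one_eq_charDegree χ.2, Complex.conj_natCast]
    · push_cast; ring
    · intro v _ hv
      rw [Pi.single_eq_of_ne hv, zero_mul]
    · intro h; exact absurd (Finset.mem_univ _) h
  have hR : ∀ x : G, ∑ u : G, a u * (Pi.single (1 : G) (1 : ℂ) : G → ℂ) (x⁻¹ * u * x) = 1 := by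
    intro x
    rw [Finset.sum_eq_single (1 : G)]
    · have : x⁻¹ * 1 * x = 1 := by group
      rw [this, Pi.single_eq_same, mul_one]
      simp only [a]
      rw [extendByZero_of_mem U _ (one_mem U)]
      have : (⟨1, one_mem U⟩ : U) = 1 := rfl
      rw [this, map_one, inv_one, Units.val_one]
    · intro u _ hu
      rw [Pi.single_eq_of_ne, mul_zero]
      intro h
      apply hu
      have : u = x * (x⁻¹ * u * x) * x⁻¹ := by group
      rw [this, h]; group
    · intro h; exact absurd (Finset.mem_univ _) h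
  rw [Finset.sum_congr rfl fun χ _ => hL χ, Finset.sum_congr rfl fun x _ => hR x, ← Finset.mul_sum,
    Finset.sum_const, Finset.card_univ, nsmul_eq_mul, mul_one, ← Nat.card_eq_fintype_card] at h
  have h1 : Nat.card U * ∑ χ, m χ * charDegree (χ : G → ℂ) = Nat.card U * U.index := by
    rw [U.card_mul_index]
    exact_mod_cast h
  exact Nat.eq_of_mul_eq_mul_left Nat.card_pos h1

/-- **The constituents of the permutation character do not contain the nondegenerate character.** -/
theorem lin_zero (U B : Subgroup G) (ψ : U →* ℂˣ) (D : Set G)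
    (h1 : ∀ x ∉ D, ∃ u : U, x⁻¹ * u * x ∈ B ∧ ψ u ≠ 1)
    (h2 : ∀ x ∈ D, ∀ u ∈ U, x⁻¹ * u * x ∈ B → u = 1)
    (h3 : Nat.card D ≤ Nat.card U * Nat.card B)
    {s : G → ℂ} (hs : IsIrrCharacter G s) (hs1 : s 1 = Nat.card U) (hs0 : ∀ u ∈ U, u ≠ 1 → s u = 0)
    (hsB : mult B s ≠ 0) {χ : G → ℂ} (hχ : IsIrrCharacter G χ) (hne : χ ≠ s) (hB : mult B χ ≠ 0) :
    ∑ u : U, (((ψ u)⁻¹ : ℂˣ) : ℂ) * χ u = 0 := by
  have := finite_irr (G := G)
  have := Fintype.ofFinite (IrrCharacter G)
  have hcU : (Nat.card U : ℂ) ≠ 0 := card_ne_zero_complex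
  have hcB : (Nat.card B : ℂ) ≠ 0 := card_ne_zero_complex
  choose m hm using fun χ : IrrCharacter G => H40.GG.exists_mult_lin U ψ (isIrr_isCharacter χ.2)
  choose f hf using fun χ : IrrCharacter G => exists_mult_eq B (isIrr_isCharacter χ.2)
  let a : G → ℂ := extendByZero U (fun u => (((ψ u)⁻¹ : ℂˣ) : ℂ))
  have ha : ∀ g : G → ℂ, ∑ u : G, a u * g u = ∑ u : U, (((ψ u)⁻¹ : ℂˣ) : ℂ) * g u := fun g =>
    CharactersDeep.IndFun.sum_extendByZero U _ g
  have e2 : Nat.card U * Nat.card B * ∑ χ, m χ * f χ = Nat.card D := by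
    have h := H40.GG.sum_pair a (Set.indicator (B : Set G) (fun _ => (1 : ℂ)))
    have hL : ∀ χ : IrrCharacter G, (∑ u : G, a u * (χ : G → ℂ) u) *
        (∑ v : G, Set.indicator (B : Set G) (fun _ => (1 : ℂ)) v * conj ((χ : G → ℂ) v)) =
        (Nat.card U * Nat.card B : ℂ) * ((m χ * f χ : ℕ) : ℂ) := by
      intro χ
      have h4 : ∑ v : G, Set.indicator (B : Set G) (fun _ => (1 : ℂ)) v * conj ((χ : G → ℂ) v) =
          Nat.card B * mult B (χ : G → ℂ) := by
        rw [← mult_conj B (isIrr_isCharacter χ.2), mult, mul_inv_cancel_left₀ hcB, sB]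
        refine Finset.sum_congr rfl fun v _ => ?_
        by_cases hv : v ∈ B
        · rw [Set.indicator_of_mem (s := (B : Set G)) hv, if_pos hv, one_mul, one_mul]
        · rw [Set.indicator_of_notMem (s := (B : Set G)) hv, if_neg hv, zero_mul]
      rw [ha, hm χ, h4, hf χ]
      push_cast; ring
    have hR : ∀ x : G, ∑ u : G, a u * Set.indicator (B : Set G) (fun _ => (1 : ℂ)) (x⁻¹ * u * x) =
        Set.indicator D (fun _ => (1 : ℂ)) x := by
      intro x
      rw [ha (fun u => Set.indicator (B : Set G) (fun _ => (1 : ℂ)) (x⁻¹ * u * x))]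
      by_cases hx : x ∈ D
      · rw [Set.indicator_of_mem hx, Finset.sum_eq_single (1 : U)]
        · have h5 : x⁻¹ * ((1 : U) : G) * x ∈ (B : Set G) := by
            have : x⁻¹ * ((1 : U) : G) * x = 1 := by simp
            rw [this]; exact B.one_mem
          rw [Set.indicator_of_mem h5, map_one, inv_one, Units.val_one, mul_one]
        · intro u _ hu
          rw [Set.indicator_of_notMem, mul_zero]
          intro h5
          exact hu (Subtype.ext (h2 x hx u u.2 h5))
        · intro h; exact absurd (Finset.mem_univ _) h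
      · rw [Set.indicator_of_notMem hx]
        exact H40.GG.sum_lin_eq_zero U B ψ x (h1 x hx)
    rw [Finset.sum_congr rfl fun χ _ => hL χ, Finset.sum_congr rfl fun x _ => hR x, ← Finset.mul_sum] at h
    have h6 : ∑ x : G, Set.indicator D (fun _ => (1 : ℂ)) x = (Nat.card D : ℂ) := by
      rw [Finset.sum_indicator_eq_sum_filter, Finset.sum_const, nsmul_eq_mul, mul_one]
      congr 1
      rw [Nat.card_eq_fintype_card, Fintype.card_subtype]
    rw [h6] at h
    exact_mod_cast h
  have h4 : ∑ χ, m χ * f χ ≤ 1 := by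
    have h5 : Nat.card U * Nat.card B * ∑ χ, m χ * f χ ≤ Nat.card U * Nat.card B * 1 := by
      rw [e2, mul_one]
      exact h3
    exact Nat.le_of_mul_le_mul_left h5 (Nat.mul_pos Nat.card_pos Nat.card_pos)
  let s' : IrrCharacter G := ⟨s, hs⟩
  let χ' : IrrCharacter G := ⟨χ, hχ⟩
  have hne' : χ' ≠ s' := fun h => hne (congrArg Subtype.val h)
  have hm1 : m s' = 1 := by
    have h4 := hm s'
    rw [Finset.sum_eq_single (1 : U)] at h4
    · have h5 : (s' : G → ℂ) ((1 : U) : G) = Nat.card U := hs1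
      rw [h5, map_one, inv_one, Units.val_one, one_mul] at h4
      have h6 := mul_left_cancel₀ hcU ((mul_one _).trans h4)
      exact_mod_cast h6.symm
    · intro u _ hu
      have h5 : (s' : G → ℂ) (u : G) = 0 := hs0 u u.2 fun h => hu (Subtype.ext h)
      rw [h5, mul_zero]
    · intro h; exact absurd (Finset.mem_univ _) h
  have hfs : f s' ≠ 0 := by
    intro h
    apply hsB
    have h5 := hf s'
    rw [h] at h5
    exact_mod_cast h5
  have hfχ : f χ' ≠ 0 := by
    intro h
    apply hB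
    have h5 := hf χ'
    rw [h] at h5
    exact_mod_cast h5
  have h5 : m χ' * f χ' + m s' * f s' ≤ ∑ χ, m χ * f χ := by
    rw [← Finset.sum_pair (f := fun χ => m χ * f χ) hne']
    exact Finset.sum_le_sum_of_subset (Finset.subset_univ _)
  have h6 : m χ' * f χ' = 0 := by
    rw [hm1, one_mul] at h5
    omega
  have h7 : m χ' = 0 := (Nat.mul_eq_zero.1 h6).resolve_right hfχ
  have h8 := hm χ'
  rw [h7, Nat.cast_zero, mul_zero] at h8
  exact h8

/-- The multiplicity of a linear character of `U` in a character vanishing on `U - 1`. -/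
theorem lin_one (U : Subgroup G) (ψ : U →* ℂˣ) {s : G → ℂ} (hs1 : s 1 = Nat.card U)
    (hs0 : ∀ u ∈ U, u ≠ 1 → s u = 0) :
    ∑ u : U, (((ψ u)⁻¹ : ℂˣ) : ℂ) * s u = (Nat.card U : ℂ) := by
  rw [Finset.sum_eq_single (1 : U)]
  · have h5 : s ((1 : U) : G) = Nat.card U := hs1
    rw [h5, map_one, inv_one, Units.val_one, one_mul]
  · intro u _ hu
    have h5 : s (u : G) = 0 := hs0 u u.2 fun h => hu (Subtype.ext h)
    rw [h5, mul_zero]
  · intro h; exact absurd (Finset.mem_univ _) h

end

end Cfsg.Agent.H118.Four
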